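import Mathlib
import Cfsg.Prelude.Def_LieExceptional
import Cfsg.Agent.H1.Exchange

/-!
Basic theory of (B,N)-pairs: Bruhat cells, the Bruhat decomposition, the folding condition for the
Weyl group, standard parabolic subgroups.
-/

set_option autoImplicit false

namespace CfsgH1

open Cfsg

variable {G : Type*} [Group G] (P : BNPair G)

instance bnNormal : ((P.B ⊓ P.N).subgroupOf P.N).Normal := by
  constructor
  intro t ht n
  rw [Subgroup.mem_subgroupOf] at ht ⊢
  exact ⟨P.conj_mem n n.2 t ht, (n * t * n⁻¹).2⟩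

/-- the Weyl group -/
abbrev Weyl := P.N ⧸ (P.B ⊓ P.N).subgroupOf P.N

/-- the projection to the Weyl group -/
abbrev toW : P.N →* Weyl P := QuotientGroup.mk' _

theorem toW_eq_iff (n m : P.N) : toW P n = toW P m ↔ (n : G)⁻¹ * m ∈ P.B := by
  simp only [QuotientGroup.mk'_apply]
  rw [QuotientGroup.eq, Subgroup.mem_subgroupOf]
  exact ⟨fun h => h.1, fun h => ⟨h, (n⁻¹ * m).2⟩⟩

theorem toW_eq_one_iff (n : P.N) : toW P n = 1 ↔ (n : G) ∈ P.B := by
  rw [← map_one (toW P), eq_comm, toW_eq_iff]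
  simp

theorem toW_surjective : Function.Surjective (toW P) := QuotientGroup.mk'_surjective _

/-- a distinguished generator as an element of `N` -/
def sN (s : P.S) : P.N := ⟨s, P.subset s.2⟩

@[simp] theorem coe_sN (s : P.S) : (sN P s : G) = s := rfl

theorem weyl_gen (w : Weyl P) : ∃ l : List P.S, (l.map fun s => toW P (sN P s)).prod = w := by
  obtain ⟨⟨n, hn⟩, rfl⟩ := toW_surjective P w
  have hsq : ∀ s : P.S, toW P (sN P s) * toW P (sN P s) = 1 := fun s => by
    rw [← map_mul, toW_eq_one_iff]; exact P.sq_mem s s.2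
  let K : Subgroup (Weyl P) :=
    { carrier := {w | ∃ l : List P.S, (l.map fun s => toW P (sN P s)).prod = w}
      one_mem' := ⟨[], by simp⟩
      mul_mem' := by
        rintro _ _ ⟨l, rfl⟩ ⟨l', rfl⟩
        exact ⟨l ++ l', by simp⟩
      inv_mem' := by
        rintro _ ⟨l, rfl⟩
        refine ⟨l.reverse, ?_⟩
        induction l with
        | nil => simp
        | cons i l ih =>
          rw [List.reverse_cons, List.map_append, List.prod_append, ih, List.map_cons,
            List.map_cons, List.prod_cons, List.prod_cons, mul_inv_rev,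
            ← eq_inv_of_mul_eq_one_right (hsq i)]
          simp }
  have h : (K.comap (toW P)).map P.N.subtype = P.N := by
    apply le_antisymm (Subgroup.map_subtype_le _)
    conv_lhs => rw [← P.closure_sup]
    refine sup_le ((Subgroup.closure_le _).2 fun s hs => ?_) fun t ht => ?_
    · exact ⟨sN P ⟨s, hs⟩, ⟨[⟨s, hs⟩], by simp⟩, rfl⟩
    · refine ⟨⟨t, ht.2⟩, ?_, rfl⟩
      have : toW P ⟨t, ht.2⟩ = 1 := (toW_eq_one_iff P _).2 ht.1
      simp only [Subgroup.coe_comap, Set.mem_preimage, this]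
      exact K.one_mem
  have hn' := hn
  rw [← h] at hn'
  obtain ⟨m, hm, rfl⟩ := hn'
  exact hm

/-- the Weyl group with its generating involutions -/
def weylGen : InvGen (Weyl P) P.S where
  σ s := toW P (sN P s)
  sq s := by rw [← map_mul, toW_eq_one_iff]; exact P.sq_mem s s.2
  gen := weyl_gen P

theorem weylGen_σ (s : P.S) : (weylGen P).σ s = toW P (sN P s) := rfl

/-- the Bruhat cell of an element of the Weyl group -/
def cell (w : Weyl P) : Set G :=
  {g | ∃ n : P.N, toW P n = w ∧ ∃ b ∈ P.B, ∃ b' ∈ P.B, g = b * n * b'}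

variable {P}

theorem mem_cell_iff {n : P.N} {g : G} :
    g ∈ cell P (toW P n) ↔ ∃ b ∈ P.B, ∃ b' ∈ P.B, g = b * n * b' := by
  constructor
  · rintro ⟨m, hm, b, hb, b', hb', rfl⟩
    rw [eq_comm, toW_eq_iff] at hm
    exact ⟨b, hb, _, P.B.mul_mem hm hb', by group⟩
  · rintro ⟨b, hb, b', hb', rfl⟩
    exact ⟨n, rfl, b, hb, b', hb', rfl⟩

theorem cell_eq_doubleCoset (n : P.N) :
    cell P (toW P n) = DoubleCoset.doubleCoset (n : G) (P.B : Set G) P.B := by
  ext g
  rw [mem_cell_iff, DoubleCoset.mem_doubleCoset]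
  rfl

theorem self_mem_cell (n : P.N) : (n : G) ∈ cell P (toW P n) :=
  mem_cell_iff.2 ⟨1, P.B.one_mem, 1, P.B.one_mem, by simp⟩

theorem mem_cell_one {g : G} : g ∈ cell P 1 ↔ g ∈ P.B := by
  rw [← map_one (toW P), mem_cell_iff]
  constructor
  · rintro ⟨b, hb, b', hb', rfl⟩
    simpa using P.B.mul_mem hb hb'
  · intro h
    exact ⟨g, h, 1, P.B.one_mem, by simp⟩

theorem mul_mem_cell {w : Weyl P} {b g : G} (hb : b ∈ P.B) (hg : g ∈ cell P w) :
    b * g ∈ cell P w := by
  obtain ⟨n, hn, c, hc, c', hc', rfl⟩ := hg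
  exact ⟨n, hn, b * c, P.B.mul_mem hb hc, c', hc', by group⟩

theorem mem_cell_mul {w : Weyl P} {b g : G} (hg : g ∈ cell P w) (hb : b ∈ P.B) :
    g * b ∈ cell P w := by
  obtain ⟨n, hn, c, hc, c', hc', rfl⟩ := hg
  exact ⟨n, hn, c, hc, c' * b, P.B.mul_mem hc' hb, by group⟩

theorem inv_mem_cell {w : Weyl P} {g : G} (hg : g ∈ cell P w) : g⁻¹ ∈ cell P w⁻¹ := by
  obtain ⟨n, hn, c, hc, c', hc', rfl⟩ := hg
  exact ⟨n⁻¹, by rw [map_inv, hn], c'⁻¹, P.B.inv_mem hc', c⁻¹, P.B.inv_mem hc, by
    simp [mul_assoc]⟩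

theorem cell_nonempty (w : Weyl P) : (cell P w).Nonempty := by
  obtain ⟨n, rfl⟩ := toW_surjective P w
  exact ⟨n, self_mem_cell n⟩

/-- two elements of one cell lie in one double coset -/
theorem exists_eq_of_mem_cell {w : Weyl P} {g h : G} (hg : g ∈ cell P w) (hh : h ∈ cell P w) :
    ∃ b ∈ P.B, ∃ b' ∈ P.B, h = b * g * b' := by
  obtain ⟨n, rfl⟩ := toW_surjective P w
  obtain ⟨b, hb, b', hb', rfl⟩ := mem_cell_iff.1 hg
  obtain ⟨c, hc, c', hc', rfl⟩ := mem_cell_iff.1 hh
  exact ⟨c * b⁻¹, P.B.mul_mem hc (P.B.inv_mem hb), b'⁻¹ * c', P.B.mul_mem (P.B.inv_mem hb') hc',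
    by group⟩

theorem cell_subset_of_mem {v w : Weyl P} {g : G} (hv : g ∈ cell P v) (hw : g ∈ cell P w) :
    cell P v ⊆ cell P w := by
  intro h hh
  obtain ⟨b, hb, b', hb', rfl⟩ := exists_eq_of_mem_cell hv hh
  exact mem_cell_mul (mul_mem_cell hb hw) hb'

theorem cell_σ_mul {s : P.S} {w : Weyl P} {x g : G} (hx : x ∈ cell P ((weylGen P).σ s))
    (hg : g ∈ cell P w) : x * g ∈ cell P ((weylGen P).σ s * w) ∨ x * g ∈ cell P w := by
  obtain ⟨n, rfl⟩ := toW_surjective P w
  rw [weylGen_σ] at hx ⊢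
  obtain ⟨b, hb, b', hb', rfl⟩ := mem_cell_iff.1 hx
  obtain ⟨c, hc, c', hc', rfl⟩ := mem_cell_iff.1 hg
  have h := P.mul_mem_union s s.2 n n.2 (b' * c) (P.B.mul_mem hb' hc)
  have e : b * (sN P s : G) * b' * (c * n * c') = b * (s * (b' * c) * n) * c' := by
    simp [mul_assoc]
  rw [e, ← map_mul]
  rcases h with h | h
  · left
    refine mem_cell_mul (mul_mem_cell hb ?_) hc'
    rw [cell_eq_doubleCoset]; exact h
  · right
    refine mem_cell_mul (mul_mem_cell hb ?_) hc'
    rw [cell_eq_doubleCoset]; exact h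

theorem cell_mul_σ {s : P.S} {w : Weyl P} {x g : G} (hg : g ∈ cell P w)
    (hx : x ∈ cell P ((weylGen P).σ s)) :
    g * x ∈ cell P (w * (weylGen P).σ s) ∨ g * x ∈ cell P w := by
  have h1 := inv_mem_cell hx
  rw [InvGen.inv_σ] at h1
  rcases cell_σ_mul h1 (inv_mem_cell hg) with h | h
  · left
    simpa [InvGen.inv_σ] using inv_mem_cell h
  · right
    simpa using inv_mem_cell h

theorem s_mem_cell (s : P.S) : (s : G) ∈ cell P ((weylGen P).σ s) := self_mem_cell (sN P s)

theorem s_inv_mem_cell (s : P.S) : (s : G)⁻¹ ∈ cell P ((weylGen P).σ s) := by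
  have := inv_mem_cell (s_mem_cell s)
  rwa [InvGen.inv_σ] at this

theorem exists_sbs_notMem (s : P.S) : ∃ b ∈ P.B, (s : G) * b * s ∉ P.B := by
  by_contra hc
  push Not at hc
  apply P.conj_ne s s.2
  apply Set.Subset.antisymm
  · rintro _ ⟨b, hb, rfl⟩
    exact hc b hb
  · intro b hb
    have h2 := P.sq_mem s s.2
    refine ⟨((s : G) * s)⁻¹ * (s * b * s) * ((s : G) * s)⁻¹,
      P.B.mul_mem (P.B.mul_mem (P.B.inv_mem h2) (hc b hb)) (P.B.inv_mem h2), ?_⟩
    group

theorem s_notMem_B (s : P.S) : (s : G) ∉ P.B := by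
  intro h
  obtain ⟨b, hb, hb'⟩ := exists_sbs_notMem s
  exact hb' (P.B.mul_mem (P.B.mul_mem h hb) h)

theorem σ_ne_one (s : P.S) : (weylGen P).σ s ≠ 1 := by
  rw [weylGen_σ, Ne, toW_eq_one_iff]
  exact s_notMem_B s

theorem σ_injective : Function.Injective (weylGen P).σ := by
  intro s t h
  rw [weylGen_σ, weylGen_σ, toW_eq_iff] at h
  exact Subtype.ext (P.inj s s.2 t t.2 h)

/-- Bruhat decomposition, existence -/
theorem exists_mem_cell (g : G) : ∃ w, g ∈ cell P w := by
  let K : Subgroup G :=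
    { carrier := {g | ∀ x, (∃ w, x ∈ cell P w) ↔ (∃ w, g * x ∈ cell P w)}
      one_mem' := by simp
      mul_mem' := by
        intro a b ha hb x
        rw [hb x, ha (b * x), mul_assoc]
      inv_mem' := by
        intro a ha x
        rw [ha (a⁻¹ * x)]
        simp }
  have hB : P.B ≤ K := by
    intro b hb x
    constructor
    · rintro ⟨w, hw⟩
      exact ⟨w, mul_mem_cell hb hw⟩
    · rintro ⟨w, hw⟩
      exact ⟨w, by simpa using mul_mem_cell (P.B.inv_mem hb) hw⟩
  have hS : P.S ⊆ K := by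
    intro s hs x
    constructor
    · rintro ⟨w, hw⟩
      rcases cell_σ_mul (s_mem_cell ⟨s, hs⟩) hw with h | h
      · exact ⟨_, h⟩
      · exact ⟨_, h⟩
    · rintro ⟨w, hw⟩
      rcases cell_σ_mul (s_inv_mem_cell ⟨s, hs⟩) hw with h | h
      · exact ⟨_, by simpa using h⟩
      · exact ⟨_, by simpa using h⟩
  have hK : K = ⊤ := by
    rw [eq_top_iff, ← P.sup_eq_top]
    refine sup_le hB ?_
    rw [← P.closure_sup]
    exact sup_le ((Subgroup.closure_le _).2 hS) (inf_le_left.trans hB)
  have hg : g ∈ K := hK ▸ Subgroup.mem_top g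
  simpa using (hg 1).1 ⟨1, mem_cell_one.2 P.B.one_mem⟩

theorem mul_mem_cell_rep (n m : P.N) : (n : G) * m ∈ cell P (toW P n * toW P m) := by
  rw [← map_mul]; exact self_mem_cell (n * m)

theorem cell_unique_aux (q : ℕ) : ∀ (v w : Weyl P) (g : G), (weylGen P).len v = q →
    q ≤ (weylGen P).len w → g ∈ cell P v → g ∈ cell P w → v = w := by
  induction q with
  | zero =>
    intro v w g hv _ h1 h2
    obtain rfl := (weylGen P).len_eq_zero hv
    obtain ⟨n, rfl⟩ := toW_surjective P w
    have := cell_subset_of_mem h2 h1 (self_mem_cell n)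
    rw [mem_cell_one] at this
    exact ((toW_eq_one_iff P n).2 this).symm
  | succ q ih =>
    intro v w g hv hw h1 h2
    have hv1 : v ≠ 1 := by rintro rfl; simp at hv
    obtain ⟨s, u, rfl, hu⟩ := (weylGen P).exists_left_descent hv1
    obtain ⟨n, rfl⟩ := toW_surjective P u
    have h3 : (s : G) * n ∈ cell P w :=
      cell_subset_of_mem h1 h2 (mul_mem_cell_rep (sN P s) n)
    have h4 := (weylGen P).le_len_σ_mul s w
    rcases cell_σ_mul (s_inv_mem_cell s) h3 with h | h
    · rw [inv_mul_cancel_left] at h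
      rw [ih _ _ _ (by omega) (by omega) (self_mem_cell n) h]
      simp
    · rw [inv_mul_cancel_left] at h
      have := ih _ _ _ (by omega) (by omega) (self_mem_cell n) h
      rw [← this] at hw
      omega

/-- Bruhat decomposition, uniqueness -/
theorem cell_unique {v w : Weyl P} {g : G} (hv : g ∈ cell P v) (hw : g ∈ cell P w) : v = w := by
  rcases le_total ((weylGen P).len v) ((weylGen P).len w) with h | h
  · exact cell_unique_aux _ v w g rfl h hv hw
  · exact (cell_unique_aux _ w v g rfl h hw hv).symm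

theorem σ_mul_ne (s : P.S) (w : Weyl P) : (weylGen P).σ s * w ≠ w := by
  intro h
  exact σ_ne_one s (by simpa using h)

theorem cell_σ_mul_of_le_aux (s : P.S) (q : ℕ) : ∀ (w : Weyl P) (x g : G),
    (weylGen P).len w = q → q ≤ (weylGen P).len ((weylGen P).σ s * w) →
    x ∈ cell P ((weylGen P).σ s) → g ∈ cell P w → x * g ∈ cell P ((weylGen P).σ s * w) := by
  induction q with
  | zero =>
    intro w x g hw _ hx hg
    obtain rfl := (weylGen P).len_eq_zero hw
    rw [mul_one]
    exact mem_cell_mul hx (mem_cell_one.1 hg)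
  | succ q ih =>
    intro w x g hw hsw hx hg
    have hw1 : w ≠ 1 := by rintro rfl; simp at hw
    obtain ⟨t, v, rfl, hv⟩ := (weylGen P).exists_right_descent hw1
    rcases cell_σ_mul hx hg with h | h
    · exact h
    exfalso
    obtain ⟨n, rfl⟩ := toW_surjective P v
    obtain ⟨b, hb, b', hb', rfl⟩ := exists_eq_of_mem_cell (mul_mem_cell_rep n (sN P t)) hg
    have h1 : x * (b * n * t) ∈ cell P (toW P n * (weylGen P).σ t) := by
      have := mem_cell_mul h (P.B.inv_mem hb')
      simpa [mul_assoc] using this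
    have h2 := (weylGen P).len_mul_σ_le t ((weylGen P).σ s * toW P n)
    rw [mul_assoc] at h2
    have h3 : x * (b * n) ∈ cell P ((weylGen P).σ s * toW P n) :=
      ih _ _ _ (by omega) (by omega) hx (mul_mem_cell hb (self_mem_cell n))
    rcases cell_mul_σ h1 (s_inv_mem_cell t) with h4 | h4
    · rw [InvGen.mul_σ_mul_σ] at h4
      have e : x * (b * n * t) * (t : G)⁻¹ = x * (b * n) := by group
      rw [e] at h4
      exact σ_mul_ne s _ (cell_unique h3 h4)
    · have e : x * (b * n * t) * (t : G)⁻¹ = x * (b * n) := by group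
      rw [e] at h4
      have h5 := cell_unique h3 h4
      rw [← h5, InvGen.σ_mul_σ_mul] at hsw
      omega

theorem cell_σ_mul_of_le {s : P.S} {w : Weyl P} {x g : G}
    (h : (weylGen P).len w ≤ (weylGen P).len ((weylGen P).σ s * w))
    (hx : x ∈ cell P ((weylGen P).σ s)) (hg : g ∈ cell P w) :
    x * g ∈ cell P ((weylGen P).σ s * w) :=
  cell_σ_mul_of_le_aux s _ w x g rfl h hx hg

theorem cell_mul_σ_of_le {s : P.S} {w : Weyl P} {x g : G}
    (h : (weylGen P).len w ≤ (weylGen P).len (w * (weylGen P).σ s))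
    (hg : g ∈ cell P w) (hx : x ∈ cell P ((weylGen P).σ s)) :
    g * x ∈ cell P (w * (weylGen P).σ s) := by
  have h1 := inv_mem_cell hx
  rw [InvGen.inv_σ] at h1
  have h2 := cell_σ_mul_of_le (s := s) (w := w⁻¹) (by
    rw [← (weylGen P).len_inv (_ * _)]
    simpa [InvGen.inv_σ] using h) h1 (inv_mem_cell hg)
  simpa [InvGen.inv_σ] using inv_mem_cell h2

theorem exists_sbs_mem_cell (s : P.S) :
    ∃ b ∈ P.B, (s : G) * b * s ∈ cell P ((weylGen P).σ s) := by
  obtain ⟨b, hb, hb'⟩ := exists_sbs_notMem s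
  refine ⟨b, hb, ?_⟩
  rcases cell_σ_mul (mem_cell_mul (s_mem_cell s) hb) (s_mem_cell s) with h | h
  · rw [(weylGen P).sq, mem_cell_one] at h
    exact absurd h hb'
  · exact h

theorem exists_mem_cell_of_le {s : P.S} {n : P.N}
    (h : (weylGen P).len ((weylGen P).σ s * toW P n) ≤ (weylGen P).len (toW P n)) :
    ∃ b ∈ P.B, (s : G) * b * n ∈ cell P (toW P n) := by
  obtain ⟨b, hb, hb'⟩ := exists_sbs_mem_cell s
  refine ⟨b, hb, ?_⟩
  have h1 : (s : G)⁻¹ * n ∈ cell P ((weylGen P).σ s * toW P n) := by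
    have := mul_mem_cell_rep (sN P s)⁻¹ n
    rwa [map_inv, ← weylGen_σ, InvGen.inv_σ] at this
  have h2 := cell_σ_mul_of_le (s := s) (by simpa using h) hb' h1
  simpa [mul_assoc] using h2

theorem len_σ_mul_ne (s : P.S) (w : Weyl P) :
    (weylGen P).len ((weylGen P).σ s * w) ≠ (weylGen P).len w := by
  intro h
  obtain ⟨n, rfl⟩ := toW_surjective P w
  obtain ⟨b, hb, hb'⟩ := exists_mem_cell_of_le h.le
  have := cell_σ_mul_of_le h.ge (mem_cell_mul (s_mem_cell s) hb) (self_mem_cell n)
  exact σ_mul_ne s _ (cell_unique this hb')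

theorem weyl_folding (P : BNPair G) : (weylGen P).Folding where
  ne := len_σ_mul_ne
  fold := by
    intro s t v h1 h2 h3
    obtain ⟨n, rfl⟩ := toW_surjective P v
    have e : toW P n * (weylGen P).σ t = toW P (n * sN P t) := by rw [map_mul]; rfl
    rw [mul_assoc, e] at h3
    obtain ⟨b, hb, hb'⟩ := exists_mem_cell_of_le h3.le
    have h4 := cell_σ_mul_of_le h1.le (mem_cell_mul (s_mem_cell s) hb) (self_mem_cell n)
    rw [← e] at hb'
    have e2 : (s : G) * b * (n * sN P t : P.N) = s * b * n * t := by simp [mul_assoc]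
    rw [e2] at hb'
    rcases cell_mul_σ h4 (s_mem_cell t) with h | h
    · exfalso
      have := cell_unique h hb'
      rw [mul_assoc] at this
      exact σ_mul_ne s _ this
    · exact cell_unique h hb'

/-- the representative in `N` of a word -/
def wordN (P : BNPair G) (l : List P.S) : P.N := (l.map (sN P)).prod

theorem toW_wordN (l : List P.S) : toW P (wordN P l) = (weylGen P).wp l := by
  induction l with
  | nil => simp [wordN]
  | cons s l ih =>
    simp only [wordN, List.map_cons, List.prod_cons, map_mul, InvGen.wp_cons] at ih ⊢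
    rw [ih]; rfl

theorem wordN_mem {H : Subgroup G} {l : List P.S} (h : ∀ s ∈ l, (s : G) ∈ H) :
    (wordN P l : G) ∈ H := by
  induction l with
  | nil => simp [wordN]
  | cons s l ih =>
    simp only [wordN, List.map_cons, List.prod_cons, Subgroup.coe_mul, coe_sN] at ih ⊢
    exact H.mul_mem (h s (by simp)) (ih fun t ht => h t (by simp [ht]))

/-- Key lemma: a subgroup containing `B` and `n B n⁻¹` contains all letters of every reduced
word for `n`. -/
theorem letters_mem {H : Subgroup G} (hB : P.B ≤ H) (l : List P.S) (hl : (weylGen P).Red l)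
    (n : P.N) (hn : toW P n = (weylGen P).wp l) (hH : ∀ b ∈ P.B, (n : G) * b * (n : G)⁻¹ ∈ H) :
    ∀ s ∈ l, (s : G) ∈ H := by
  induction l generalizing n with
  | nil => simp
  | cons s l ih =>
    have hs : (s : G) ∈ H := by
      have h1 : (weylGen P).len ((weylGen P).σ s * toW P n) ≤ (weylGen P).len (toW P n) := by
        rw [hn, hl, InvGen.wp_cons, InvGen.σ_mul_σ_mul, hl.tail]
        simp
      obtain ⟨b, hb, hb'⟩ := exists_mem_cell_of_le h1
      obtain ⟨c, hc, c', hc', e⟩ := mem_cell_iff.1 hb'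
      have e2 : (s : G) = c * (n * c' * (n : G)⁻¹) * b⁻¹ := by
        rw [← mul_assoc, ← mul_assoc, ← e]; group
      rw [e2]
      exact H.mul_mem (H.mul_mem (hB hc) (hH _ hc')) (hB (P.B.inv_mem hb))
    intro t ht
    rcases List.mem_cons.1 ht with rfl | ht
    · exact hs
    · refine ih hl.tail ((sN P s)⁻¹ * n) ?_ ?_ t ht
      · rw [map_mul, map_inv, hn, ← weylGen_σ, InvGen.wp_cons, inv_mul_cancel_left]
      · intro b hb
        have := H.mul_mem (H.mul_mem (H.inv_mem hs) (hH b hb)) hs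
        simpa [mul_assoc] using this

theorem mem_of_conj_le {H : Subgroup G} (hB : P.B ≤ H) {n : G} (hn : n ∈ P.N)
    (hH : ∀ b ∈ P.B, n * b * n⁻¹ ∈ H) : n ∈ H := by
  obtain ⟨l, hl, hl'⟩ := (weylGen P).exists_red (toW P ⟨n, hn⟩)
  have h1 := wordN_mem (letters_mem hB l hl ⟨n, hn⟩ hl'.symm hH)
  rw [← toW_wordN, toW_eq_iff] at hl'
  simpa using H.mul_mem h1 (hB hl')

theorem letters_mem_of_mem {H : Subgroup G} (hB : P.B ≤ H) (l : List P.S)
    (hl : (weylGen P).Red l) {g : G} (hg : g ∈ cell P ((weylGen P).wp l)) (hH : g ∈ H) :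
    ∀ s ∈ l, (s : G) ∈ H := by
  have h1 : (wordN P l : G) ∈ H := by
    obtain ⟨b, hb, b', hb', e⟩ := exists_eq_of_mem_cell hg
      (by rw [← toW_wordN]; exact self_mem_cell _)
    rw [e]
    exact H.mul_mem (H.mul_mem (hB hb) hH) (hB hb')
  exact letters_mem hB l hl (wordN P l) (toW_wordN l) fun b hb =>
    H.mul_mem (H.mul_mem h1 (hB hb)) (H.inv_mem h1)

theorem B_le_parabolic (J : Set G) : P.B ≤ P.parabolic J := le_sup_left

theorem subset_parabolic (J : Set G) : J ⊆ P.parabolic J := fun _ hx =>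
  (le_sup_right : Subgroup.closure J ≤ P.parabolic J) (Subgroup.subset_closure hx)

theorem parabolic_le {J : Set G} {H : Subgroup G} (hB : P.B ≤ H) (hJ : J ⊆ H) :
    P.parabolic J ≤ H := sup_le hB ((Subgroup.closure_le _).2 hJ)

theorem parabolic_mono {J K : Set G} (h : J ⊆ K) : P.parabolic J ≤ P.parabolic K :=
  parabolic_le (B_le_parabolic K) (h.trans (subset_parabolic K))

theorem mem_of_mem_cell_wp {H : Subgroup G} (hB : P.B ≤ H) {l : List P.S}
    (hl : ∀ s ∈ l, (s : G) ∈ H) {g : G} (hg : g ∈ cell P ((weylGen P).wp l)) : g ∈ H := by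
  rw [← toW_wordN, mem_cell_iff] at hg
  obtain ⟨b, hb, b', hb', rfl⟩ := hg
  exact H.mul_mem (H.mul_mem (hB hb) (wordN_mem hl)) (hB hb')

/-- elements of a standard parabolic subgroup lie in cells of words in the index set -/
theorem mem_parabolic_iff_word {J : Set G} (hJ : J ⊆ P.S) (g : G) :
    g ∈ P.parabolic J ↔ ∃ l : List P.S, (∀ s ∈ l, (s : G) ∈ J) ∧ g ∈ cell P ((weylGen P).wp l) := by
  constructor
  · intro hg
    let X : G → Prop := fun x => ∃ l : List P.S, (∀ s ∈ l, (s : G) ∈ J) ∧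
      x ∈ cell P ((weylGen P).wp l)
    let K : Subgroup G :=
      { carrier := {g | ∀ x, X x ↔ X (g * x)}
        one_mem' := by simp
        mul_mem' := by
          intro a b ha hb x
          rw [hb x, ha (b * x), mul_assoc]
        inv_mem' := by
          intro a ha x
          rw [ha (a⁻¹ * x)]
          simp }
    have hB : P.B ≤ K := by
      intro b hb x
      constructor
      · rintro ⟨l, hl, hw⟩
        exact ⟨l, hl, mul_mem_cell hb hw⟩
      · rintro ⟨l, hl, hw⟩
        exact ⟨l, hl, by simpa using mul_mem_cell (P.B.inv_mem hb) hw⟩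
    have hstep : ∀ (s : P.S) (y x : G), (s : G) ∈ J → y ∈ cell P ((weylGen P).σ s) → X x →
        X (y * x) := by
      rintro s y x hs hy ⟨l, hl, hw⟩
      rcases cell_σ_mul hy hw with h | h
      · refine ⟨s :: l, ?_, h⟩
        intro t ht
        rcases List.mem_cons.1 ht with rfl | ht
        · exact hs
        · exact hl t ht
      · exact ⟨l, hl, h⟩
    have hS : J ⊆ K := by
      intro s hs x
      constructor
      · exact hstep ⟨s, hJ hs⟩ s x hs (s_mem_cell ⟨s, hJ hs⟩)
      · intro h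
        simpa using hstep ⟨s, hJ hs⟩ s⁻¹ _ hs (s_inv_mem_cell ⟨s, hJ hs⟩) h
    have hgK : g ∈ K := parabolic_le hB hS hg
    have := (hgK 1).1 ⟨[], by simp, mem_cell_one.2 P.B.one_mem⟩
    rw [mul_one] at this
    exact this
  · rintro ⟨l, hl, hg⟩
    exact mem_of_mem_cell_wp (B_le_parabolic J) (fun s hs => subset_parabolic J (hl s hs)) hg

theorem mem_of_mem_parabolic {J : Set G} (hJ : J ⊆ P.S) {s : G} (hs : s ∈ P.S)
    (h : s ∈ P.parabolic J) : s ∈ J := by
  obtain ⟨l, hl, hg⟩ := (mem_parabolic_iff_word hJ s).1 h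
  obtain ⟨r, hr, hrl, hsub⟩ := (weyl_folding P).exists_red_subset l
  have e := cell_unique hg (s_mem_cell ⟨s, hs⟩)
  have h1 : r.length = 1 := by
    rw [← hr, hrl, e, (weyl_folding P).len_σ]
  obtain ⟨t, rfl⟩ := List.length_eq_one_iff.1 h1
  rw [e] at hrl
  have : t = ⟨s, hs⟩ := σ_injective (by simpa using hrl)
  have h2 := hl t (hsub t (by simp))
  rwa [this] at h2

theorem eq_parabolic_of_le {M : Subgroup G} (hM : P.B ≤ M) :
    M = P.parabolic (P.S ∩ M) := by
  refine le_antisymm ?_ (parabolic_le hM Set.inter_subset_right)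
  intro g hg
  obtain ⟨w, hw⟩ := exists_mem_cell (P := P) g
  obtain ⟨l, hl, rfl⟩ := (weylGen P).exists_red w
  exact (mem_parabolic_iff_word Set.inter_subset_left g).2
    ⟨l, fun s hs => ⟨s.2, letters_mem_of_mem hM l hl hw hg s hs⟩, hw⟩

theorem inter_parabolic {J : Set G} (hJ : J ⊆ P.S) : P.S ∩ P.parabolic J = J := by
  ext s
  exact ⟨fun h => mem_of_mem_parabolic hJ h.1 h.2, fun h => ⟨hJ h, subset_parabolic J h⟩⟩

theorem parabolic_S : P.parabolic P.S = ⊤ := by
  have := eq_parabolic_of_le (P := P) (M := ⊤) le_top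
  simpa using this.symm

/-- if `g B g⁻¹ ≤ H` for an overgroup `H` of `B`, then `g ∈ H`. -/
theorem mem_of_conj_B_le {H : Subgroup G} (hB : P.B ≤ H) {g : G}
    (hH : ∀ b ∈ P.B, g * b * g⁻¹ ∈ H) : g ∈ H := by
  obtain ⟨w, n, -, b, hb, b', hb', rfl⟩ := exists_mem_cell (P := P) g
  have : (n : G) ∈ H := by
    refine mem_of_conj_le hB n.2 fun c hc => ?_
    have h1 := hH (b'⁻¹ * c * b') (P.B.mul_mem (P.B.mul_mem (P.B.inv_mem hb') hc) hb')
    have h2 := H.mul_mem (H.mul_mem (H.inv_mem (hB hb)) h1) (hB hb)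
    convert h2 using 1
    group
  exact H.mul_mem (H.mul_mem (hB hb) this) (hB hb')

theorem mem_parabolic_singleton (s : P.S) (g : G) :
    g ∈ P.parabolic {(s : G)} ↔ g ∈ P.B ∨ g ∈ cell P ((weylGen P).σ s) := by
  constructor
  · intro h
    obtain ⟨l, hl, hg⟩ := (mem_parabolic_iff_word (Set.singleton_subset_iff.2 s.2) g).1 h
    have : (weylGen P).wp l = 1 ∨ (weylGen P).wp l = (weylGen P).σ s := by
      clear hg
      induction l with
      | nil => simp
      | cons t l ih =>
        have ht : t = s := Subtype.ext (hl t (by simp))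
        rcases ih (fun u hu => hl u (by simp [hu])) with h | h
        · right; simp [h, ht]
        · left; simp [h, ht, (weylGen P).sq]
    rcases this with h | h
    · left; rwa [h, mem_cell_one] at hg
    · right; rwa [h] at hg
  · rintro (h | h)
    · exact B_le_parabolic _ h
    · refine mem_of_mem_cell_wp (B_le_parabolic _) (l := [s]) ?_ (by simpa using h)
      intro t ht
      rw [List.mem_singleton.1 ht]
      exact subset_parabolic _ rfl

/-- A normal subgroup `H` not contained in `B` of a group with an irreducible (B,N)-pair satisfies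
`H B = G`. -/
theorem sup_eq_top_of_normal (hirr : P.Irreducible) (H : Subgroup G) [hH : H.Normal]
    (hHB : ¬ H ≤ P.B) : H ⊔ P.B = ⊤ := by
  set J : Set G := P.S ∩ (H ⊔ P.B : Subgroup G) with hJ
  have hM : H ⊔ P.B = P.parabolic J := eq_parabolic_of_le le_sup_right
  have hJne : J.Nonempty := by
    by_contra hc
    rw [Set.not_nonempty_iff_eq_empty] at hc
    apply hHB
    refine le_trans le_sup_left (hM.le.trans ?_)
    rw [hc]
    exact parabolic_le le_rfl (Set.empty_subset _)
  by_contra hne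
  have hJ2 : (P.S \ J).Nonempty := by
    by_contra hc
    rw [Set.not_nonempty_iff_eq_empty, Set.sdiff_eq_empty] at hc
    apply hne
    rw [eq_top_iff, ← parabolic_S (P := P), hM]
    exact parabolic_mono hc
  obtain ⟨s, hs, t, ht, hst⟩ := hirr J Set.inter_subset_left hJne hJ2
  apply hst
  lift s to P.S using hs.1
  lift t to P.S using ht.1
  have htM : (t : G) ∉ H ⊔ P.B := fun h => ht.2 ⟨t.2, h⟩
  have hsM : (s : G) ∈ H ⊔ P.B := hs.2
  have hts : t ≠ s := by rintro rfl; exact htM hsM
  have hF := weyl_folding P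
  have l1 : (weylGen P).len ((weylGen P).σ s) = 1 := hF.len_σ s
  have hlen : ∀ a b : P.S, a ≠ b → (weylGen P).len ((weylGen P).σ a * (weylGen P).σ b) = 2 := by
    intro a b hab
    have h1 := hF.ne a ((weylGen P).σ b)
    have h2 := (weylGen P).len_σ_mul_le a ((weylGen P).σ b)
    have h3 : (weylGen P).len ((weylGen P).σ a * (weylGen P).σ b) ≠ 0 := by
      intro h
      have := (weylGen P).len_eq_zero h
      apply hab
      apply σ_injective
      rw [← (weylGen P).inv_σ b]
      exact eq_inv_of_mul_eq_one_left this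
    rw [hF.len_σ] at h1 h2
    omega
  have hmem : (s : G) ∈ ((H ⊔ P.B : Subgroup G) : Set G) := hsM
  rw [Subgroup.normal_mul] at hmem
  obtain ⟨h, hh, b, hb, e⟩ := hmem
  have hcell : h ∈ cell P ((weylGen P).σ s) := by
    have : h = s * b⁻¹ := by rw [← e]; simp
    rw [this]
    exact mem_cell_mul (s_mem_cell s) (P.B.inv_mem hb)
  have h1 : (t : G) * h ∈ cell P ((weylGen P).σ t * (weylGen P).σ s) :=
    cell_σ_mul_of_le (by rw [hlen t s hts, l1]; omega) (s_mem_cell t) hcell
  have h2 : (t : G) * h * (t : G)⁻¹ ∈ H ⊔ P.B :=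
    (le_sup_left : H ≤ H ⊔ P.B) (hH.conj_mem h hh t)
  have hcomm : (weylGen P).σ t * (weylGen P).σ s = (weylGen P).σ s * (weylGen P).σ t := by
    rcases cell_mul_σ h1 (s_inv_mem_cell t) with h3 | h3
    · by_cases hc : (weylGen P).len ((weylGen P).σ t * (weylGen P).σ s * (weylGen P).σ t) <
          (weylGen P).len ((weylGen P).σ s * (weylGen P).σ t)
      · refine hF.fold t t _ ?_ ?_ hc
        · rw [hlen t s hts, l1]; omega
        · rw [hlen s t hts.symm, l1]; omega
      · exfalso
        have h4 := hF.ne t ((weylGen P).σ s * (weylGen P).σ t)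
        have h5 := (weylGen P).len_σ_mul_le t ((weylGen P).σ s * (weylGen P).σ t)
        rw [mul_assoc] at hc
        rw [hlen s t hts.symm] at h4 h5 hc
        have hred : (weylGen P).Red [t, s, t] := by
          simp only [InvGen.Red, InvGen.wp_cons, InvGen.wp_nil, mul_one, List.length_cons,
            List.length_nil]
          omega
        exact htM (letters_mem_of_mem le_sup_right [t, s, t] hred
          (by simpa [mul_assoc] using h3) h2 t (by simp))
    · exfalso
      have hred : (weylGen P).Red [t, s] := by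
        simp only [InvGen.Red, InvGen.wp_cons, InvGen.wp_nil, mul_one, List.length_cons,
          List.length_nil]
        exact hlen t s hts
      exact htM (letters_mem_of_mem le_sup_right [t, s] hred
        (by simpa [mul_assoc] using h3) h2 t (by simp))
  have : toW P (sN P s * sN P t * (sN P s)⁻¹ * (sN P t)⁻¹) = 1 := by
    simp only [map_mul, map_inv, ← weylGen_σ]
    rw [← hcomm]
    group
  rw [toW_eq_one_iff] at this
  simpa using this

end CfsgH1
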