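import Mathlib

/-!
A trivial-intersection subgroup of a simple group whose conjugates form a "tournament"
(of two conjugates one always normalises the other) does not exist.
-/

set_option autoImplicit false

namespace CfsgOD

variable {G : Type*} [Group G]

/-- A subgroup of a simple subgroup `V` normalised by `V` is trivial or everything. -/
theorem simple_norm {V A : Subgroup G} (hV : IsSimpleGroup V)
    (nm : ∀ v ∈ V, ∀ a ∈ A, a ∈ V → v * a * v⁻¹ ∈ A) {a : G} (ha : a ∈ A) (hv : a ∈ V)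
    (a1 : a ≠ 1) : V ≤ A := by
  have hn : (A.subgroupOf V).Normal := ⟨fun n hn g => by
    rw [Subgroup.mem_subgroupOf] at hn ⊢
    exact nm g g.2 n hn n.2⟩
  rcases hn.eq_bot_or_eq_top with h | h
  · exfalso
    have : (⟨a, hv⟩ : V) ∈ A.subgroupOf V := by rw [Subgroup.mem_subgroupOf]; exact ha
    rw [h, Subgroup.mem_bot] at this
    exact a1 (congrArg Subtype.val this)
  · intro v hv'
    have : (⟨v, hv'⟩ : V) ∈ A.subgroupOf V := by rw [h]; trivial
    rwa [Subgroup.mem_subgroupOf] at this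

theorem tourn_aux [Finite G] {A : Subgroup G} {g a : G} (ha : a ∈ A)
    (ti : ∀ d ∈ A, d ≠ 1 → (g * a * g⁻¹) * d * (g * a * g⁻¹)⁻¹ ∈ A →
      g * a * g⁻¹ ∈ Subgroup.normalizer (A : Set G))
    (h1 : ∀ α ∈ A, g⁻¹ * α * g ∈ Subgroup.normalizer (A : Set G))
    (h2 : ∀ α ∈ A, (g * a * g⁻¹) * α * (g * a * g⁻¹)⁻¹ ∈ Subgroup.normalizer (A : Set G)) :
    g * a * g⁻¹ ∈ Subgroup.normalizer (A : Set G) := by
  by_contra ne
  set e := g * a * g⁻¹ with he
  have mem : ∀ α : A, g⁻¹ * (e * α * e⁻¹ * (α : G)⁻¹) * g ∈ A := by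
    intro α
    have h3 := (Subgroup.mem_normalizer_iff.1 (h1 α α.2) a⁻¹).1 (A.inv_mem ha)
    have : g⁻¹ * (e * α * e⁻¹ * (α : G)⁻¹) * g
        = a * (g⁻¹ * α * g * a⁻¹ * (g⁻¹ * α * g)⁻¹) := by rw [he]; group
    rw [this]
    exact A.mul_mem ha h3
  let f : A → A := fun α => ⟨_, mem α⟩
  have inj : Function.Injective f := by
    intro α β h
    have h' : g⁻¹ * (e * α * e⁻¹ * (α : G)⁻¹) * g = g⁻¹ * (e * β * e⁻¹ * (β : G)⁻¹) * g :=
      congrArg Subtype.val h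
    have h4 : e * α * e⁻¹ * (α : G)⁻¹ = e * β * e⁻¹ * (β : G)⁻¹ :=
      mul_left_cancel (mul_right_cancel h')
    by_contra nn
    have d1 : (β : G)⁻¹ * α ≠ 1 := fun h5 => nn (Subtype.ext (inv_mul_eq_one.1 h5).symm)
    have dm : (β : G)⁻¹ * α ∈ A := A.mul_mem (A.inv_mem β.2) α.2
    apply ne
    apply ti _ dm d1
    have : e * ((β : G)⁻¹ * α) * e⁻¹ = (β : G)⁻¹ * α := by
      have h6 : (β : G)⁻¹ * α * e⁻¹ = e⁻¹ * ((β : G)⁻¹ * α) := by
        calc (β : G)⁻¹ * α * e⁻¹ = (β : G)⁻¹ * e⁻¹ * (e * α * e⁻¹ * (α : G)⁻¹) * α := by group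
          _ = (β : G)⁻¹ * e⁻¹ * (e * β * e⁻¹ * (β : G)⁻¹) * α := by rw [h4]
          _ = e⁻¹ * ((β : G)⁻¹ * α) := by group
      rw [mul_assoc, h6]; group
    rw [this]; exact dm
  obtain ⟨α, hα⟩ := (Finite.injective_iff_surjective.1 inj) ⟨a, ha⟩
  have h7 : g⁻¹ * (e * α * e⁻¹ * (α : G)⁻¹) * g = a := congrArg Subtype.val hα
  have h8 : e = e * α * e⁻¹ * (α : G)⁻¹ := by
    calc e = g * a * g⁻¹ := he
      _ = g * (g⁻¹ * (e * α * e⁻¹ * (α : G)⁻¹) * g) * g⁻¹ := by rw [h7]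
      _ = e * α * e⁻¹ * (α : G)⁻¹ := by group
  apply ne
  rw [h8]
  exact Subgroup.mul_mem _ (h2 α α.2) (Subgroup.inv_mem _ (Subgroup.le_normalizer α.2))

/-- The tournament lemma. -/
theorem tourn [Finite G] {V A : Subgroup G} (hV : IsSimpleGroup V) (le : A ≤ V)
    {a0 : G} (ha0 : a0 ∈ A) (a1 : a0 ≠ 1) (nt : ¬ V ≤ A)
    (ti : ∀ g ∈ V, ∀ d ∈ A, d ≠ 1 → g * d * g⁻¹ ∈ A → g ∈ Subgroup.normalizer (A : Set G))
    (tot : ∀ g ∈ V, (∀ a ∈ A, g * a * g⁻¹ ∈ Subgroup.normalizer (A : Set G)) ∨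
      (∀ a ∈ A, g⁻¹ * a * g ∈ Subgroup.normalizer (A : Set G))) : False := by
  have all : ∀ g ∈ V, ∀ a ∈ A, g * a * g⁻¹ ∈ Subgroup.normalizer (A : Set G) := by
    intro g hg a ha
    rcases tot g hg with h | h
    · exact h a ha
    have ev : ∀ a ∈ A, g * a * g⁻¹ ∈ V := fun a ha =>
      V.mul_mem (V.mul_mem hg (le ha)) (V.inv_mem hg)
    rcases tot _ (ev a ha) with h2 | h2
    · exact tourn_aux ha (ti _ (ev a ha)) h h2
    · have := tourn_aux (g := g) (A.inv_mem ha) (ti _ (ev _ (A.inv_mem ha))) h (by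
        intro α hα
        have := h2 α hα
        rwa [show (g * a * g⁻¹)⁻¹ * α * (g * a * g⁻¹)
          = g * a⁻¹ * g⁻¹ * α * (g * a⁻¹ * g⁻¹)⁻¹ by group] at this)
      have := Subgroup.inv_mem _ this
      rwa [show (g * a⁻¹ * g⁻¹)⁻¹ = g * a * g⁻¹ by group] at this
  let H : Subgroup G :=
    { carrier := {h | ∀ g ∈ V, g * h * g⁻¹ ∈ Subgroup.normalizer (A : Set G)}
      one_mem' := fun g _ => by simp
      mul_mem' := fun {p q} hp hq g hg => by
        have := Subgroup.mul_mem _ (hp g hg) (hq g hg)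
        rwa [show g * p * g⁻¹ * (g * q * g⁻¹) = g * (p * q) * g⁻¹ by group] at this
      inv_mem' := fun {p} hp g hg => by
        have := Subgroup.inv_mem _ (hp g hg)
        rwa [show (g * p * g⁻¹)⁻¹ = g * p⁻¹ * g⁻¹ by group] at this }
  have hH : V ≤ H := simple_norm hV (A := H) (fun v hv h hh _ g hg => by
    have := hh (g * v) (V.mul_mem hg hv)
    rwa [show g * v * h * (g * v)⁻¹ = g * (v * h * v⁻¹) * g⁻¹ by group] at this)
    (fun g hg => all g hg a0 ha0) (le ha0) a1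
  apply nt
  refine simple_norm hV (fun v hv a ha _ => ?_) ha0 (le ha0) a1
  have := hH hv 1 V.one_mem
  simp only [one_mul, inv_one, mul_one] at this
  exact (Subgroup.mem_normalizer_iff.1 this a).1 ha

end CfsgOD
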