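import Cfsg.Agent.H4.OA4
import Cfsg.Agent.H1.OD1

/-!
No component contains two maximal intersections belonging to the same pair of points.
-/

set_option autoImplicit false

namespace CfsgOA

open MulAction Subgroup CfsgOD

variable {G Ω : Type*} [Group G] [MulAction G Ω] {C : Ω → Set (Subgroup G)}

/-- the centre of a component is trivial -/
theorem CF.d_cen (h : CF C) {x : Ω} {T : Subgroup G} (hT : T ∈ C x) {a : G} (ha : a ∈ T)
    (hc : ∀ t ∈ T, t * a = a * t) : a = 1 := by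
  by_contra a1
  have le : T ≤ Subgroup.centralizer (T : Set G) :=
    simple_norm (h.simple x T hT) (fun v hv b hb _ => by
      rw [Subgroup.mem_centralizer_iff] at hb ⊢
      intro t ht
      rw [hb v hv, mul_inv_cancel_right]
      exact hb t ht) (Subgroup.mem_centralizer_iff.2 hc) ha a1
  obtain ⟨p, hp, q, hq, pq⟩ := h.nc x T hT
  exact pq (Subgroup.mem_centralizer_iff.1 (le hq) p hp)

/-- two components at a point with a common nontrivial element coincide -/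
theorem CF.d_same (h : CF C) {x : Ω} {T U : Subgroup G} (hT : T ∈ C x) (hU : U ∈ C x) {a : G}
    (a1 : a ≠ 1) (ha : a ∈ T) (hb : a ∈ U) : T = U := by
  by_contra ne
  exact a1 (h.d_cen hT ha fun t ht => h.comm x T hT U hU ne t ht a hb)

theorem CF.d_card [Nontrivial Ω] (h : CF C) (two : Two G Ω) {x y : Ω} (xy : x ≠ y)
    {T U : Subgroup G} (hT : T ∈ C x) (hU : U ∈ C y) : Nat.card T = Nat.card U := by
  obtain ⟨g, gx, -⟩ := two x y y x xy xy.symm
  obtain ⟨k, -, hk⟩ := h.trans y _ (h.cj' gx hT) U hU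
  rw [← hk, card_cg, card_cg]

/-- a component meeting a component at another point moves that point -/
theorem CF.d_mv [Finite G] [FaithfulSMul G Ω] [Nontrivial Ω] (h : CF C) (two : Two G Ω)
    {x y : Ω} (xy : x ≠ y) {T U : Subgroup G} (hT : T ∈ C x) (hU : U ∈ C y) {a : G}
    (a1 : a ≠ 1) (ha : a ∈ T) (hb : a ∈ U) : ∃ u ∈ U, u • x ≠ x := by
  by_contra ne
  push Not at ne
  let K : Subgroup G :=
    { carrier := {k | ∀ W ∈ C x, cg k W = W}
      one_mem' := fun W _ => cg_one W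
      mul_mem' := fun {p q} hp hq W hW => by rw [← cg_cg, hq W hW, hp W hW]
      inv_mem' := fun {p} hp W hW => by
        conv_lhs => rw [← hp W hW, cg_cg, inv_mul_cancel, cg_one] }
  have hK : U ≤ K := simple_norm (h.simple y U hU) (A := K) (fun v hv k hk _ W hW => by
    have e : cg v⁻¹ W ∈ C x := h.cj' (ne _ (U.inv_mem hv)) hW
    rw [← cg_cg, ← cg_cg, hk _ e, cg_cg, mul_inv_cancel, cg_one])
    (fun W hW => h.cg_eq hT hW ha) hb a1
  have le : U ≤ T := simple_norm (h.simple y U hU) (fun v hv t ht _ => by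
    rw [← hK hv T hT, mem_cg]
    simpa [mul_assoc] using ht) ha hb a1
  have e : U = T := eq_of_le_of_card_ge le (h.d_card two xy hT hU).le
  exact xy (h.pt_eq two hT (e ▸ hU))

/-- the bound on intersections of components at different points -/
def MxI (C : Ω → Set (Subgroup G)) (s : ℕ) : Prop :=
  ∀ x y, x ≠ y → ∀ T ∈ C x, ∀ U ∈ C y, Nat.card ↥(T ⊓ U) ≤ s

theorem MxI.eqS [Finite G] {s : ℕ} (mx : MxI C s) {x y : Ω} (xy : x ≠ y) {T U S : Subgroup G}
    (hT : T ∈ C x) (hU : U ∈ C y) (cS : Nat.card S = s) (l1 : S ≤ T) (l2 : S ≤ U) :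
    S = T ⊓ U :=
  eq_of_le_of_card_ge (le_inf l1 l2) (cS ▸ mx x y xy T hT U hU)

theorem mem_cg_of_comm {T : Subgroup G} {m d : G} (hd : d ∈ T) (c : m * d = d * m) :
    d ∈ cg m T := by
  rw [mem_cg, mul_assoc, ← c, inv_mul_cancel_left]; exact hd

/-- an element centralising a maximal intersection and a further element fixes the point -/
theorem CF.d_cfix [Finite G] (h : CF C) {s : ℕ} (mx : MxI C s) {z : Ω} {T S : Subgroup G}
    (hT : T ∈ C z) (l : S ≤ T) (cS : Nat.card S = s) {d m : G} (hd : d ∈ T) (dS : d ∉ S)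
    (c1 : ∀ a ∈ S, m * a = a * m) (c2 : m * d = d * m) : m • z = z := by
  by_contra ne
  have e := mx.eqS (Ne.symm ne) hT (h.cj m z T hT) cS l
    (fun a ha => mem_cg_of_comm (l ha) (c1 a ha))
  exact dS (e ▸ ⟨hd, mem_cg_of_comm hd c2⟩)

theorem ex_ne_one [Finite G] {S : Subgroup G} {s : ℕ} (s1 : 1 < s) (cS : Nat.card S = s) :
    ∃ a ∈ S, a ≠ 1 := by
  by_contra ne
  push Not at ne
  have : S = ⊥ := (Subgroup.eq_bot_iff_forall S).2 ne
  rw [this, Subgroup.card_bot] at cS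
  omega

/-- `T` at `x` has two edges to `y` -/
def Dg2 (C : Ω → Set (Subgroup G)) (s : ℕ) (y : Ω) (T U1 U2 : Subgroup G) : Prop :=
  U1 ∈ C y ∧ U2 ∈ C y ∧ U1 ≠ U2 ∧ Nat.card ↥(T ⊓ U1) = s ∧ Nat.card ↥(T ⊓ U2) = s

theorem CF.d_third [Finite G] [FaithfulSMul G Ω] [Nontrivial Ω] (h : CF C) (two : Two G Ω)
    {s : ℕ} (s1 : 1 < s) (mx : MxI C s) {x y : Ω} (xy : x ≠ y) {T U1 U2 : Subgroup G}
    (hT : T ∈ C x) (D : Dg2 C s y T U1 U2) {T' W : Subgroup G} (hT' : T' ∈ C x) (hW : W ∈ C y)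
    (e : Nat.card ↥(T' ⊓ W) = s) : W = U1 ∨ W = U2 := by
  by_contra ne
  push Not at ne
  obtain ⟨h1, h2, n12, c1, c2⟩ := D
  obtain ⟨a, ha, a1⟩ := ex_ne_one s1 e
  obtain ⟨m, hm, mv⟩ := h.d_mv two xy hT' hW a1 ha.1 ha.2
  obtain ⟨d, hd, d1⟩ := ex_ne_one s1 c2
  exact mv (h.d_cfix mx hT inf_le_left c1 hd.1
    (fun dS => n12 (h.d_same h1 h2 d1 dS.2 hd.2))
    (fun b hb => h.comm y W hW U1 h1 ne.1 m hm b hb.2) (h.comm y W hW U2 h2 ne.2 m hm d hd.2))

theorem card_inf_cg (g : G) (T U : Subgroup G) :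
    Nat.card ↥(cg g T ⊓ cg g U) = Nat.card ↥(T ⊓ U) := by
  rw [← card_cg g (T ⊓ U)]
  congr 2
  ext x
  simp only [Subgroup.mem_inf, mem_cg]

theorem CF.d_tr (h : CF C) (two : Two G Ω) {s : ℕ} {x y z w : Ω} (xy : x ≠ y) (zw : z ≠ w)
    {T U1 U2 : Subgroup G} (hT : T ∈ C x) (D : Dg2 C s y T U1 U2) :
    ∃ T' ∈ C z, ∃ V1 V2, Dg2 C s w T' V1 V2 := by
  obtain ⟨g, gx, gy⟩ := two x y z w xy zw
  obtain ⟨h1, h2, n12, c1, c2⟩ := D
  exact ⟨cg g T, h.cj' gx hT, cg g U1, cg g U2, h.cj' gy h1, h.cj' gy h2,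
    fun e => n12 (cg_inj g e), (card_inf_cg g _ _).trans c1, (card_inf_cg g _ _).trans c2⟩

/-- every edge has an end of degree two -/
theorem CF.d_end [Finite G] [FaithfulSMul G Ω] [Nontrivial Ω] (h : CF C) (two : Two G Ω)
    {s : ℕ} (s1 : 1 < s) (mx : MxI C s) {x y : Ω} (xy : x ≠ y) {T U1 U2 : Subgroup G}
    (hT : T ∈ C x) (D : Dg2 C s y T U1 U2) {z w : Ω} (zw : z ≠ w) {P Q : Subgroup G}
    (hP : P ∈ C z) (hQ : Q ∈ C w) (e : Nat.card ↥(P ⊓ Q) = s) :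
    (∃ W ∈ C w, W ≠ Q ∧ Nat.card ↥(P ⊓ W) = s) ∨ (∃ W ∈ C z, W ≠ P ∧ Nat.card ↥(Q ⊓ W) = s) := by
  obtain ⟨T', hT', V1, V2, D1⟩ := h.d_tr two xy zw hT D
  obtain ⟨U', hU', R1, R2, D2⟩ := h.d_tr two xy zw.symm hT D
  have e' : Nat.card ↥(Q ⊓ P) = s := by rw [inf_comm]; exact e
  have p1 := h.d_third two s1 mx zw.symm hU' D2 hQ hP e'
  obtain ⟨r1, r2, n12, c1, c2⟩ := D2
  by_cases q : U' = Q
  · subst q
    right
    rcases p1 with rfl | rfl
    · exact ⟨R2, r2, n12.symm, c2⟩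
    · exact ⟨R1, r1, n12, c1⟩
  · left
    refine ⟨U', hU', q, ?_⟩
    rw [inf_comm]
    rcases p1 with rfl | rfl
    · exact c1
    · exact c2

/-- DEG2: no component has two maximal intersections with components at one other point. -/
theorem CF.deg2 [Finite G] [FaithfulSMul G Ω] [Nontrivial Ω] (h : CF C) (two : Two G Ω)
    {s : ℕ} (s1 : 1 < s) (mx : MxI C s) {x y : Ω} (xy : x ≠ y) {T U1 U2 : Subgroup G}
    (hT : T ∈ C x) (h1 : U1 ∈ C y) (h2 : U2 ∈ C y) (c1 : Nat.card ↥(T ⊓ U1) = s)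
    (c2 : Nat.card ↥(T ⊓ U2) = s) : U1 = U2 := by
  by_contra n12
  have D : Dg2 C s y T U1 U2 := ⟨h1, h2, n12, c1, c2⟩
  obtain ⟨a0, ha0, a01⟩ := ex_ne_one s1 c2
  obtain ⟨b0, hb0, b01⟩ := ex_ne_one s1 c1
  have cS : ∀ g ∈ U2, ∀ b ∈ T ⊓ U1, g * b = b * g := fun g hg b hb =>
    h.comm y U2 h2 U1 h1 (Ne.symm n12) g hg b hb.2
  have sT : ∀ g ∈ U2, T ⊓ U1 ≤ cg g T := fun g hg b hb => mem_cg_of_comm hb.1 (cS g hg b hb)
  have nrm : ∀ g ∈ U2, g • x = x → g ∈ Subgroup.normalizer ((T ⊓ U2 : Subgroup G) : Set G) := by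
    intro g hg gx
    have e : cg g T = T := h.d_same (h.cj' gx hT) hT b01 (sT g hg hb0) hb0.1
    rw [Subgroup.mem_normalizer_iff]
    intro a
    constructor
    · intro ha
      refine ⟨?_, U2.mul_mem (U2.mul_mem hg ha.2) (U2.inv_mem hg)⟩
      rw [← e]
      change _ ∈ cg g T
      rw [mem_cg]
      simpa [mul_assoc] using ha.1
    · intro ha
      have a1 : g * a * g⁻¹ ∈ cg g T := by rw [e]; exact ha.1
      rw [mem_cg] at a1
      have a2 := U2.mul_mem (U2.mul_mem (U2.inv_mem hg) ha.2) hg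
      exact ⟨by simpa [mul_assoc] using a1, by simpa [mul_assoc] using a2⟩
  refine tourn (h.simple y U2 h2) (A := T ⊓ U2) inf_le_right ha0 a01 ?_ ?_ ?_
  · intro le
    obtain ⟨u, hu, mv⟩ := h.d_mv two xy hT h2 a01 ha0.1 ha0.2
    exact mv (h.fix x T hT u (le hu).1)
  · intro g hg d hd d1 hgd
    refine nrm g hg ?_
    by_contra ne
    have e := mx.eqS (Ne.symm ne) hT (h.cj g x T hT) c1 inf_le_left (sT g hg)
    have m : g * d * g⁻¹ ∈ T ⊓ U1 := by
      rw [e]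
      refine ⟨hgd.1, ?_⟩
      change _ ∈ cg g T
      rw [mem_cg]
      simpa [mul_assoc] using hd.1
    refine n12 (h.d_same h1 h2 (a := g * d * g⁻¹) (fun e1 => d1 ?_) m.2 hgd.2)
    calc d = g⁻¹ * (g * d * g⁻¹) * g := by group
      _ = 1 := by rw [e1]; group
  · intro g hg
    by_cases gx : g • x = x
    · left
      intro a ha
      exact Subgroup.le_normalizer ((Subgroup.mem_normalizer_iff.1 (nrm g hg gx) a).1 ha)
    have hP := h.cj g x T hT
    have e := mx.eqS (Ne.symm gx) hT hP c1 inf_le_left (sT g hg)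
    rcases h.d_end two s1 mx xy hT D (Ne.symm gx) hT hP (by rw [← e]; exact c1) with
      ⟨W, hW, ne, cW⟩ | ⟨W, hW, ne, cW⟩
    · left
      intro a ha
      have m2 : g * a * g⁻¹ ∈ U2 := U2.mul_mem (U2.mul_mem hg ha.2) (U2.inv_mem hg)
      have m1 : g * a * g⁻¹ ∈ cg g T := by
        rw [mem_cg]
        simpa [mul_assoc] using ha.1
      obtain ⟨d, hd, d1⟩ := ex_ne_one s1 cW
      exact nrm _ m2 (h.d_cfix mx hT inf_le_left c1 hd.1
        (fun dS => ne (h.d_same hW hP d1 hd.2 (sT g hg dS))) (cS _ m2)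
        (h.comm _ _ hP W hW (Ne.symm ne) _ m1 d hd.2))
    · right
      intro a ha
      have m2 : g⁻¹ * a * g ∈ U2 := U2.mul_mem (U2.mul_mem (U2.inv_mem hg) ha.2) hg
      obtain ⟨d, hd, d1⟩ := ex_ne_one s1 cW
      have f := h.d_cfix mx hP (sT g hg) c1 hd.1
        (fun dS => ne (h.d_same hW hT d1 hd.2 dS.1)) (cS _ ha.2)
        (h.comm _ _ hT W hW (Ne.symm ne) _ ha.1 d hd.2)
      refine nrm _ m2 ?_
      rw [mul_smul, mul_smul, f, inv_smul_smul]

end CfsgOA
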