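import Cfsg.Agent.H7.OB0
import Cfsg.Agent.H1.OD2

/-! The degree two configuration is impossible, in the form used for the assembly. -/

set_option autoImplicit false

namespace CfsgOB

open Subgroup CfsgH5 CfsgOA

variable {G Ω : Type*} [Group G] [MulAction G Ω] [Finite G]
variable {C : Ω → Set (Subgroup G)} {s : ℕ}

theorem AL.to_OA (h : AL C s) : CfsgOA.CF C where
  fix := h.fix
  cj := h.cjm
  simple := h.simp
  nc := fun x T hT => by
    by_contra ne
    apply h.nab x T hT
    refine ⟨⟨fun a b => Subtype.ext ?_⟩⟩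
    by_contra e
    exact ne ⟨a, a.2, b, b.2, e⟩
  comm := h.comm
  trans := fun x T hT U hU => h.trans x x T hT U hU
  two := fun x => by
    haveI : Nontrivial Ω := ⟨h.pt⟩
    obtain ⟨y, xy⟩ := exists_ne x
    obtain ⟨S, -, -, T, hT, -⟩ := h.ex y x xy
    obtain ⟨U, hU, n⟩ := h.twoc x T hT
    exact ⟨U, hU, T, hT, n⟩

theorem AL.noDeg (h : AL C s) : NoDeg C s := by
  haveI : Nontrivial Ω := ⟨h.pt⟩
  haveI : FaithfulSMul G Ω := ⟨fun {a b} e => by
    have := h.faith (b⁻¹ * a) (fun x => by rw [mul_smul, e, inv_smul_smul])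
    exact (inv_mul_eq_one.1 this).symm⟩
  intro x y xy T hT S hS S' hS' l l'
  obtain ⟨c, -, U, hU, m⟩ := hS
  obtain ⟨c', -, U', hU', m'⟩ := hS'
  have mx : MxI C s := h.max
  have e := mx.eqS xy hT hU c l m
  have e' := mx.eqS xy hT hU' c' l' m'
  have := h.to_OA.deg2 h.two h.one mx xy hT hU hU' (e ▸ c) (e' ▸ c')
  rw [e, e', this]

end CfsgOB
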